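import Cfsg.Agent.Num.Zsigmondy

/-!
Size of the primitive part of `a^n - 1` (helper11): `totient_sq` (`n ≤ 2 φ(n)²`), `Phi_ge`
(`3^φ(n) ≤ 2^φ(n) Φ_n(a)`), `exists_prim_mul` (a primitive divisor `m` with `Φ_n(a) ≤ m (φ(n)+1)`),
`exists_prim` (a primitive divisor `≥ 3n+1` outside thirteen pairs), `prim_dvd`.
-/

set_option autoImplicit false

namespace Cfsg.Agent.Num

theorem totient_sq (n : ℕ) : n ≤ 2 * n.totient ^ 2 ∧ (Odd n → n ≤ n.totient ^ 2) := by
  induction n using Nat.recOnPosPrimePosCoprime with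
  | zero => simp
  | one => simp
  | prime_pow p k hp hk =>
    obtain ⟨j, rfl⟩ : ∃ j, k = j + 1 := ⟨k - 1, by omega⟩
    rw [Nat.totient_prime_pow_succ hp]
    have h2 := hp.two_le
    have hj : p ^ j ≤ (p ^ j) ^ 2 := Nat.le_self_pow (by norm_num) _
    obtain ⟨s, rfl⟩ : ∃ s, p = s + 1 := ⟨p - 1, by omega⟩
    simp only [Nat.add_sub_cancel]
    refine ⟨?_, fun ho => ?_⟩
    · rw [mul_pow, pow_succ]
      have : s + 1 ≤ 2 * s ^ 2 := by nlinarith
      nlinarith [Nat.mul_le_mul hj this]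
    · have hs : 2 ≤ s := by
        by_contra h
        have : s = 1 := by omega
        subst this
        rw [Nat.odd_pow_iff (by omega)] at ho
        exact absurd ho (by decide)
      rw [mul_pow, pow_succ]
      have : s + 1 ≤ s ^ 2 := by nlinarith
      exact Nat.mul_le_mul hj this
  | coprime a b _ _ hab iha ihb =>
    rw [Nat.totient_mul hab, mul_pow]
    refine ⟨?_, fun ho => ?_⟩
    · rcases Nat.even_or_odd a with ha | ha
      · have hb : Odd b := by
          by_contra hb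
          rw [Nat.not_odd_iff_even] at hb
          have := Nat.dvd_gcd (even_iff_two_dvd.1 ha) (even_iff_two_dvd.1 hb)
          rw [hab] at this
          omega
        nlinarith [Nat.mul_le_mul iha.1 (ihb.2 hb)]
      · nlinarith [Nat.mul_le_mul (iha.2 ha) ihb.1]
    · rw [Nat.odd_mul] at ho
      exact Nat.mul_le_mul (iha.2 ho.1) (ihb.2 ho.2)

theorem three_pow_le_aux (p : ℕ) (hp : 2 ≤ p) : 3 ^ p ≤ 2 ^ p * (2 ^ p - 1) := by
  induction p, hp using Nat.le_induction with
  | base => norm_num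
  | succ k hk ih =>
    have h1 : 1 ≤ 2 ^ k := Nat.one_le_two_pow
    obtain ⟨s, hs⟩ : ∃ s, 2 ^ k = s + 1 := ⟨2 ^ k - 1, by omega⟩
    rw [pow_succ, pow_succ, hs]
    rw [hs] at ih
    have : (s + 1) * 2 - 1 = 2 * s + 1 := by omega
    rw [this]
    simp only [Nat.add_sub_cancel] at ih
    nlinarith

theorem three_pow_le_aux' (p : ℕ) (hp : 3 ≤ p) : 3 ^ (p - 1) * 3 ≤ 2 ^ (p - 1) * (2 ^ p - 1) := by
  induction p, hp using Nat.le_induction with
  | base => norm_num
  | succ k hk ih =>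
    obtain ⟨j, rfl⟩ : ∃ j, k = j + 1 := ⟨k - 1, by omega⟩
    simp only [Nat.add_sub_cancel] at *
    have h1 : 1 ≤ 2 ^ j := Nat.one_le_two_pow
    obtain ⟨s, hs⟩ : ∃ s, 2 ^ j = s + 1 := ⟨2 ^ j - 1, by omega⟩
    rw [pow_succ 2 (j + 1), pow_succ 2 j, pow_succ 3 j, hs]
    rw [pow_succ 2 j, hs] at ih
    have e1 : (s + 1) * 2 * 2 - 1 = 4 * s + 3 := by omega
    have e2 : (s + 1) * 2 - 1 = 2 * s + 1 := by omega
    rw [e1]; rw [e2] at ih
    nlinarith

theorem Phi_ge {a n : ℕ} (ha : 1 < a) (hn : 2 < n) : 3 ^ n.totient ≤ 2 ^ n.totient * Phi n a := by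
  rcases Nat.lt_or_ge 2 a with ha3 | ha2
  · have h1 := Phi_lower ha (show 1 < n by omega)
    have h2 : 2 ^ n.totient ≤ (a - 1) ^ n.totient := Nat.pow_le_pow_left (by omega) _
    calc 3 ^ n.totient ≤ (2 * 2) ^ n.totient := Nat.pow_le_pow_left (by omega) _
      _ = 2 ^ n.totient * 2 ^ n.totient := mul_pow _ _ _
      _ ≤ _ := Nat.mul_le_mul_left _ (by omega)
  · have ha2' : a = 2 := by omega
    subst ha2'
    by_cases hsq : ∃ p : ℕ, p.Prime ∧ p * p ∣ n
    · obtain ⟨p, hp, c, hc⟩ := hsq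
      have hn' : n = (p * c) * p := by rw [hc]; ring
      have hc0 : 0 < c := by rcases Nat.eq_zero_or_pos c with h | h; · subst h; omega
                             · exact h
      have h1 : 1 < p * c := by nlinarith [hp.two_le]
      have hb : 1 < 2 ^ p := Nat.one_lt_two_pow hp.ne_zero
      have h2 := Phi_lower hb h1
      have ht : n.totient = p * (p * c).totient := by
        rw [hn', mul_comm, Nat.totient_mul_of_prime_of_dvd hp (Dvd.intro _ rfl)]
      rw [ht, hn', Phi_mul_prime_of_dvd hp (Dvd.intro _ rfl), pow_mul, pow_mul]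
      calc (3 ^ p) ^ (p * c).totient ≤ (2 ^ p * (2 ^ p - 1)) ^ (p * c).totient :=
            Nat.pow_le_pow_left (three_pow_le_aux p hp.two_le) _
        _ = _ := mul_pow _ _ _
        _ ≤ _ := Nat.mul_le_mul_left _ h2.le
    · obtain ⟨p, hp, hp3, hpn⟩ : ∃ p : ℕ, p.Prime ∧ 3 ≤ p ∧ p ∣ n := by
        by_contra hcon
        push Not at hcon
        have h3 : ∀ {r : ℕ}, r.Prime → r ∣ n → r = 2 := fun {r} hr hd => by
          by_contra h
          exact hcon r hr (by have := hr.two_le; omega) hd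
        obtain ⟨k, hk⟩ : ∃ k, n = 2 ^ k := ⟨_, Nat.eq_prime_pow_of_unique_prime_dvd (by omega) h3⟩
        apply hsq
        refine ⟨2, Nat.prime_two, ?_⟩
        rcases k with _ | _ | k
        · omega
        · omega
        · rw [hk]; exact ⟨2 ^ k, by ring⟩
      obtain ⟨m, hm⟩ := hpn
      have hpm : ¬ p ∣ m := fun h => hsq ⟨p, hp, hm ▸ Nat.mul_dvd_mul_left p h⟩
      have hn' : n = m * p := by rw [hm]; ring
      have hm0 : 0 < m := by rcases Nat.eq_zero_or_pos m with h | h; · subst h; omega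
                             · exact h
      have h1 := Phi_mul_prime_of_not_dvd (a := 2) hp hpm
      have hb : 1 < 2 ^ p := Nat.one_lt_two_pow hp.ne_zero
      have h2 : (2 ^ p - 1) ^ m.totient ≤ Phi m (2 ^ p) := by
        rcases Nat.lt_or_ge 1 m with h | h
        · exact (Phi_lower hb h).le
        · have : m = 1 := by omega
          subst this
          have h5 := Phi_cast hb 1
          simp only [Polynomial.cyclotomic_one, Polynomial.eval_sub, Polynomial.eval_X,
            Polynomial.eval_one] at h5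
          simp only [Nat.totient_one, pow_one]
          omega
      have h3 := Phi_upper ha m
      have ht : n.totient = (p - 1) * m.totient := by
        rw [hm, Nat.totient_mul_of_prime_of_not_dvd hp hpm]
      rw [ht, hn', pow_mul, pow_mul]
      have h4 : (3 ^ (p - 1)) ^ m.totient * 3 ^ m.totient ≤
          ((2 ^ (p - 1)) ^ m.totient * Phi (m * p) 2) * 3 ^ m.totient := by
        calc _ = (3 ^ (p - 1) * 3) ^ m.totient := (mul_pow _ _ _).symm
          _ ≤ (2 ^ (p - 1) * (2 ^ p - 1)) ^ m.totient :=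
            Nat.pow_le_pow_left (three_pow_le_aux' p hp3) _
          _ = (2 ^ (p - 1)) ^ m.totient * (2 ^ p - 1) ^ m.totient := mul_pow _ _ _
          _ ≤ (2 ^ (p - 1)) ^ m.totient * (Phi (m * p) 2 * Phi m 2) :=
            Nat.mul_le_mul_left _ (h1 ▸ h2)
          _ ≤ (2 ^ (p - 1)) ^ m.totient * (Phi (m * p) 2 * 3 ^ m.totient) :=
            Nat.mul_le_mul_left _ (Nat.mul_le_mul_left _ h3)
          _ = _ := by ring
      exact Nat.le_of_mul_le_mul_right h4 (by positivity)

theorem coprime_of_prim {a n m : ℕ} (ha : 1 < a)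
    (h : ∀ r : ℕ, r.Prime → r ∣ m → orderOf (a : ZMod r) = n) (i : ℕ) (hi : 1 ≤ i) (hin : i < n) :
    Nat.Coprime m (a ^ i - 1) := by
  apply Nat.Coprime.symm
  apply Nat.coprime_of_dvd
  intro r hr h1 h2
  rw [dvd_pow_sub_one_iff_orderOf ha, h r hr h2] at h1
  exact absurd (Nat.le_of_dvd hi h1) (by omega)

theorem exists_prim_mul {a n : ℕ} (ha : 1 < a) (hn : 2 < n) :
    ∃ m : ℕ, m ∣ a ^ n - 1 ∧ (∀ i : ℕ, 1 ≤ i → i < n → Nat.Coprime m (a ^ i - 1)) ∧
      Phi n a ≤ m * (n.totient + 1) := by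
  by_cases h : ∀ r : ℕ, r.Prime → r ∣ Phi n a → orderOf (a : ZMod r) = n
  · exact ⟨Phi n a, Phi_dvd ha n, coprime_of_prim ha h, Nat.le_mul_of_pos_right _ (by omega)⟩
  · push Not at h
    obtain ⟨r, hr, hd, hne⟩ := h
    obtain ⟨c, hc⟩ := id hd
    refine ⟨c, (Dvd.intro_left _ hc.symm).trans (Phi_dvd ha n), coprime_of_prim ha ?_, ?_⟩
    · intro s hs hsc
      by_contra hne'
      have hsP : s ∣ Phi n a := hc ▸ Dvd.dvd.mul_left hsc r
      have := nonprim_unique ha (by omega) hr hd hne hs hsP hne'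
      subst this
      apply not_sq_dvd_Phi ha hn hr hd hne
      rw [hc, sq]
      exact Nat.mul_dvd_mul_left _ hsc
    · obtain ⟨k, m, h1, -⟩ := nonprim_dvd_Phi ha (by omega) hr hd hne
      have hrn : r ∣ n := by rw [h1]; exact Dvd.dvd.mul_right (dvd_pow_self r (by omega)) m
      have htot : r - 1 ≤ n.totient := by
        rw [← Nat.totient_prime hr]
        exact Nat.le_of_dvd (Nat.totient_pos.2 (by omega)) (Nat.totient_dvd_of_dvd hrn)
      rw [hc, mul_comm]
      exact Nat.mul_le_mul_left _ (by omega)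

/-- strip from `N` the common factors with `M`. -/
def strip : ℕ → ℕ → ℕ → ℕ
  | 0, N, _ => N
  | k + 1, N, M => if Nat.gcd N M = 1 then N else strip k (N / Nat.gcd N M) M

/-- candidate primitive part. -/
def cand (a n : ℕ) : ℕ := (List.range n).foldl (fun N i => if i = 0 then N else strip 40 N (a ^ i - 1)) (a ^ n - 1)

/-- the finite check. -/
def chk (a n : ℕ) : Bool :=
  (fun m => (a ^ n - 1) % m == 0 && (List.range n).all (fun i => i == 0 || Nat.gcd m (a ^ i - 1) == 1) &&
    decide (3 * n + 1 ≤ m)) (cand a n)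

theorem chk_spec {a n : ℕ} (h : chk a n = true) :
    ∃ m : ℕ, m ∣ a ^ n - 1 ∧ (∀ i : ℕ, 1 ≤ i → i < n → Nat.Coprime m (a ^ i - 1)) ∧ 3 * n + 1 ≤ m := by
  simp only [chk, Bool.and_eq_true, beq_iff_eq, List.all_eq_true, List.mem_range, Bool.or_eq_true,
    decide_eq_true_eq] at h
  refine ⟨cand a n, Nat.dvd_of_mod_eq_zero h.1.1, fun i hi hin => ?_, h.2⟩
  rcases h.1.2 i hin with h0 | h0
  · omega
  · exact h0

/-- the thirteen exceptional pairs. -/
def exc : List (ℕ × ℕ) :=
  [(2, 6), (2, 4), (2, 10), (2, 12), (2, 18), (3, 4), (3, 6), (5, 6), (2, 3), (2, 8), (2, 20), (4, 3), (4, 6)]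

theorem chk_all : (List.range 10).all (fun a => (List.range 91).all (fun n =>
    decide (a < 2) || decide (n < 3) || decide ((a, n) ∈ exc) || chk a n)) = true := by
  decide +kernel

/-- number of `i < k` coprime to `n`. -/
def cnt (n : ℕ) : ℕ → ℕ
  | 0 => 0
  | k + 1 => if Nat.gcd n k = 1 then cnt n k + 1 else cnt n k

theorem cnt_eq (n k : ℕ) : cnt n k = ((Finset.range k).filter (fun i => n.Coprime i)).card := by
  induction k with
  | zero => simp [cnt]
  | succ k ih =>
    rw [cnt, Finset.range_add_one, Finset.filter_insert]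
    split_ifs with h
    · rw [Finset.card_insert_of_notMem (by simp), ih]
    · exact ih

theorem cnt_le (n k : ℕ) (hk : k ≤ n) : cnt n k ≤ n.totient := by
  rw [cnt_eq, Nat.totient_eq_card_coprime]
  exact Finset.card_le_card (Finset.filter_subset_filter _ (Finset.range_subset_range.2 hk))

theorem cnt_all : (List.range 1700).all (fun n =>
    decide (n ≤ 90) || decide (30 ≤ cnt n (min n 160))) = true := by
  decide +kernel

theorem le_of_totient {n : ℕ} (h : n.totient ≤ 29) : n ≤ 90 := by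
  have h1 := (totient_sq n).1
  have h2 : n < 1700 := by nlinarith
  have h3 := List.all_eq_true.1 cnt_all n (List.mem_range.2 h2)
  simp only [Bool.or_eq_true, decide_eq_true_eq] at h3
  rcases h3 with h3 | h3
  · exact h3
  · have := cnt_le n _ (min_le_left n 160)
    omega

theorem big_aux (t : ℕ) (ht : 30 ≤ t) : (6 * t ^ 2 + 1) * (t + 1) * 2 ^ t ≤ 3 ^ t := by
  induction t, ht using Nat.le_induction with
  | base => norm_num
  | succ k hk ih =>
    have h1 : (6 * (k + 1) ^ 2 + 1) * (k + 1 + 1) * 2 ≤ (6 * k ^ 2 + 1) * (k + 1) * 3 := by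
      nlinarith [Nat.mul_le_mul hk hk, Nat.mul_le_mul (Nat.mul_le_mul hk hk) (le_refl k), Nat.mul_le_mul hk (le_refl k)]
    rw [pow_succ 2 k, pow_succ 3 k]
    nlinarith [Nat.mul_le_mul h1 (le_refl (2 ^ k))]

theorem big_aux' (t : ℕ) (ht : 2 ≤ t) : (6 * t ^ 2 + 1) * (t + 1) ≤ 9 ^ t := by
  induction t, ht using Nat.le_induction with
  | base => norm_num
  | succ k hk ih =>
    have h1 : (6 * (k + 1) ^ 2 + 1) * (k + 1 + 1) ≤ (6 * k ^ 2 + 1) * (k + 1) * 9 := by
      nlinarith [Nat.mul_le_mul hk hk, Nat.mul_le_mul (Nat.mul_le_mul hk hk) (le_refl k), Nat.mul_le_mul hk (le_refl k)]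
    rw [pow_succ 9 k]
    nlinarith

theorem exists_prim {a n : ℕ} (ha : 1 < a) (hn : 2 < n) (hex : (a, n) ∉ exc) :
    ∃ m : ℕ, m ∣ a ^ n - 1 ∧ (∀ i : ℕ, 1 ≤ i → i < n → Nat.Coprime m (a ^ i - 1)) ∧ 3 * n + 1 ≤ m := by
  by_cases hbig : (6 * n.totient ^ 2 + 1) * (n.totient + 1) ≤ Phi n a
  · obtain ⟨m, h1, h2, h3⟩ := exists_prim_mul ha hn
    refine ⟨m, h1, h2, ?_⟩
    have h4 := Nat.le_of_mul_le_mul_right (hbig.trans h3) (by omega)
    have h5 := (totient_sq n).1
    omega
  · have ht : n.totient ≤ 29 := by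
      by_contra h
      apply hbig
      have h1 := (big_aux _ (by omega : 30 ≤ n.totient)).trans (Phi_ge ha hn)
      rw [mul_comm (2 ^ _)] at h1
      exact Nat.le_of_mul_le_mul_right h1 (by positivity)
    have ha9 : a < 10 := by
      by_contra h
      apply hbig
      have h2 : 2 ≤ n.totient := by
        have := Nat.totient_even hn
        have h0 : 0 < n.totient := Nat.totient_pos.2 (by omega)
        obtain ⟨c, hc⟩ := this
        omega
      have h1 := Phi_lower ha (show 1 < n by omega)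
      have h3 : 9 ^ n.totient ≤ (a - 1) ^ n.totient := Nat.pow_le_pow_left (by omega) _
      have := big_aux' _ h2
      omega
    have hn90 := le_of_totient ht
    have h3 := List.all_eq_true.1 (List.all_eq_true.1 chk_all a (List.mem_range.2 ha9)) n
      (List.mem_range.2 (by omega))
    simp only [Bool.or_eq_true, decide_eq_true_eq] at h3
    rcases h3 with ((h3 | h3) | h3) | h3
    · omega
    · omega
    · exact absurd h3 hex
    · exact chk_spec h3

theorem prim_dvd {a n m A : ℕ} (h : a ^ n - 1 ∣ A * (∏ i ∈ Finset.Ico 1 n, (a ^ i - 1)) ^ 3)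
    (hm : m ∣ a ^ n - 1) (hc : ∀ i : ℕ, 1 ≤ i → i < n → Nat.Coprime m (a ^ i - 1)) : m ∣ A := by
  refine Nat.Coprime.dvd_of_dvd_mul_right ?_ (hm.trans h)
  apply Nat.Coprime.pow_right
  exact Nat.Coprime.prod_right fun i hi => hc i (Finset.mem_Ico.1 hi).1 (Finset.mem_Ico.1 hi).2

end Cfsg.Agent.Num
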